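import Cfsg.Agent.H3.Core2
import Cfsg.Agent.H3.Mu.G23.Core
import Cfsg.Agent.H3.Mu.G23.L0
import Cfsg.Agent.H3.Mu.G23.P2
import Cfsg.Agent.H3.Mu.G23.P3

/-! The Schur multiplier. -/

set_option autoImplicit false
set_option maxRecDepth 100000

open Cfsg.Agent.L0

namespace Cfsg.Agent.H3.G23


theorem schur {G : Type*} [Group G] (hm : Model G 364 4 T Bf) :
    Finite G ∧ Nat.card G = 4245696 ∧ HasSchurMultiplier G (Multiplicative (ZMod 3)) := by
  obtain ⟨A, x, h⟩ := core' hm
  haveI := h.fin
  have h2 := P2.pm h.base h.tab h.card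
  have h3 := P3.pm h.base h.tab h.card
  have hr := pmult_rest h.card [] (by simp) (by decide +kernel) (by decide +kernel)
  exact ⟨h.fin, h.card, hasSchur_of (lower_one' h.pres L0rep
    [(3661, 4), (2145, 7), (4290, 8), (6360, 11), (14, 17), (-3704, 18), (506, 19), (-512, 20), (3180, 21), (-4756, 23), (-541, 24), (3967, 25), (-2908, 26), (512, 30), (-518, 31), (6, 32), (246, 33), (-253, 34), (2908, 36), (2145, 37), (-3196, 38), (170, 39), (-2656, 40), (255, 41), (1, 42)]
    (by decide +kernel) (by decide +kernel))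
    (upper_cyclic (k2 := 0) (k3 := 1) rfl (h2.mono (by norm_num)) h3 hr)⟩

end Cfsg.Agent.H3.G23
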